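import Mathlib

/-!
# Pairs of numbers adding without carries in all small prime bases
-/

set_option autoImplicit false

namespace Cfsg.Agent.HallSym

theorem mod_lt_of {x y c d : ℕ} (h : x % d + y % d < d) (hd : d ∣ x + c) (h0 : 0 < c) : y % d < c := by
  have := Nat.le_of_dvd (by omega) ((Nat.dvd_add_iff_right (dvd_mul_right d (x / d))).2
    (show d ∣ d * (x / d) + (x % d + c) by rwa [← add_assoc, Nat.div_add_mod]))
  omega

theorem dvd_of_no_carry {x y c k : ℕ} (h : ∀ p e, p.Prime → p ≤ k → x % p ^ e + y % p ^ e < p ^ e)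
    (h0 : 0 < c) (hk : ∀ p, p.Prime → p ∣ x + c → p ≤ k) : x + c ∣ ∏ i ∈ Finset.range c, (y - i) := by
  refine (Nat.dvd_iff_prime_pow_dvd_dvd _ _).2 fun p e hp he => ?_
  rcases e.eq_zero_or_pos with rfl | h1
  · simp
  exact ((Nat.dvd_sub_mod y).trans (Finset.dvd_prod_of_mem (fun i => y - i) (Finset.mem_range.2
    (mod_lt_of (h p e hp (hk p hp ((dvd_pow_self p h1.ne').trans he))) he h0))))

theorem pair {k j : ℕ} (h1 : 1 ≤ j) (hjk : j < k)
    (h : ∀ p e, p.Prime → p ≤ k → k % p ^ e + j % p ^ e < p ^ e) :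
    (j = 1 ∧ (k + 1).Prime) ∨ (k = 4 ∧ j = 3) := by
  have h' : ∀ p e, p.Prime → p ≤ k → j % p ^ e + k % p ^ e < p ^ e := fun p e a b =>
    add_comm (k % p ^ e) _ ▸ h p e a b
  have k1 : (k + 1).Prime := by_contra fun hk => by
    have := Nat.le_of_dvd (by simpa) (dvd_of_no_carry h Nat.one_pos fun p hp e =>
      Nat.le_of_lt_succ ((Nat.le_of_dvd k.succ_pos e).lt_of_ne fun e => hk (by rwa [e] at hp)))
    simp at this
    omega
  refine h1.eq_or_lt.imp (fun e => ⟨e.symm, k1⟩) fun h1 => ?_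
  have k0 := k1.eq_two_or_odd
  obtain ⟨t, rfl⟩ : j + 1 ∣ k := by
    simpa using dvd_of_no_carry h' Nat.one_pos fun p _ e => (Nat.le_of_dvd j.succ_pos e).trans hjk
  obtain ⟨c, k2⟩ := dvd_of_no_carry h Nat.two_pos fun p hp ⟨a, e⟩ => by
    rcases a with _ | _ | a
    · omega
    · have := hp.eq_two_or_odd
      omega
    · nlinarith
  obtain ⟨j, rfl⟩ : ∃ i, j = i + 2 := ⟨j - 2, by omega⟩
  simp [Finset.prod_range_succ] at k2
  have k3 : c ≠ 0 := by rintro rfl; simp at k2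
  have k4 : t ≠ 0 := by rintro rfl; simp at hjk
  rcases (Nat.one_le_iff_ne_zero.2 k4).eq_or_lt with rfl | k4
  · have k5 : j + 5 ∣ 12 := Int.natCast_dvd_natCast.1 ⟨c - j + 2, by zify at k2 ⊢; linear_combination k2⟩
    have : j ≤ 7 := by have := Nat.le_of_dvd (by omega) k5; omega
    have := h 2 4 Nat.prime_two
    interval_cases j <;> omega
  obtain rfl : c = 1 := by
    obtain ⟨c, rfl⟩ := Nat.exists_eq_add_one_of_ne_zero k3
    have k5 : j + 3 ∣ 2 * c :=
      Int.natCast_dvd_natCast.1 ⟨j - t * (c + 1), by zify at k2 ⊢; linear_combination -k2⟩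
    have := Nat.eq_zero_of_dvd_of_lt k5 (by nlinarith [Nat.mul_le_mul_left ((j + 3) * (c + 1)) k4])
    omega
  obtain rfl : t = j := by nlinarith
  obtain ⟨a, k5⟩ := dvd_of_no_carry h' Nat.two_pos fun p _ e => (Nat.le_of_dvd (by omega) e).trans (by nlinarith)
  have k6 : t + 4 ∣ 12 := Int.natCast_dvd_natCast.1 ⟨a - (t ^ 3 + 2 * t ^ 2 - 3), by
    simp only [Finset.prod_range_succ, Finset.prod_range_zero, Nat.sub_zero] at k5
    zify [show 1 ≤ (t + 2 + 1) * t by nlinarith] at k5 ⊢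
    linear_combination k5⟩
  have : t ≤ 8 := by have := Nat.le_of_dvd (by omega) k6; omega
  have := h 7 1 (by norm_num)
  interval_cases t <;> omega

theorem same {j f : ℕ} (hj : j = 2 ^ f) (h3 : 3 ≤ j)
    (h : ∀ p e, p.Prime → p ≠ 2 → p ≤ j → j % p ^ e + j % p ^ e < p ^ e) : j = 4 := by
  have k0 : ∀ p, p.Prime → p ∣ j → p = 2 := fun p hp e =>
    (Nat.prime_dvd_prime_iff_eq hp Nat.prime_two).1 (hp.dvd_of_dvd_pow (hj ▸ e))
  have k1 := h 3 1 Nat.prime_three (by omega) h3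
  have k2 := h 3 2 Nat.prime_three (by omega) h3
  have k3 := k0 3 Nat.prime_three
  have k4 := k0 5 Nat.prime_five
  obtain ⟨t, ht⟩ : ∃ t, 2 * j = 3 * t + 5 := ⟨(2 * j - 5) / 3, by omega⟩
  by_contra hne
  obtain ⟨p, hp, s, rfl⟩ := Nat.exists_prime_and_dvd (show t ≠ 1 by omega)
  have k5 : p ≠ 2 := by rintro rfl; omega
  have k6 : p ≠ 3 := by rintro rfl; omega
  have k7 : p ≠ 5 := by rintro rfl; omega
  have k8 : 7 ≤ p := by
    by_contra! e
    interval_cases p <;> first | omega | exact absurd hp (by norm_num)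
  have k9 : s ≠ 0 := by rintro rfl; omega
  have := h p 1 hp k5 (by nlinarith [Nat.pos_of_ne_zero k9])
  rw [pow_one] at this
  have h1 : 2 * j % p = 5 := by
    rw [ht, mul_left_comm, Nat.mul_add_mod, Nat.mod_eq_of_lt (by omega)]
  rw [two_mul, Nat.add_mod, Nat.mod_eq_of_lt this] at h1
  omega

end Cfsg.Agent.HallSym
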