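import Cfsg.Agent.HallSym.Basic
import Cfsg.Agent.HallSym.Num

/-!
# Hall subgroups of symmetric groups
-/

set_option autoImplicit false

namespace Cfsg.Agent.HallSym

open Equiv Equiv.Perm Finset

variable {α : Type*} [Fintype α] [DecidableEq α] {H M : Subgroup (Perm α)} {p : ℕ} {π : Set ℕ}
  {s : Setoid α}

theorem ind_blocks {P : Perm α → Prop} (h1 : P 1)
    (h : ∀ g x y, (∀ z, s z (g z)) → x ≠ y → s x y → P g → P (swap x y * g)) {g : Perm α}
    (hg : ∀ z, s z (g z)) : P g := by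
  induction hN : #g.support using Nat.strong_induction_on generalizing g with | _ N ih => ?_
  by_cases e : g = 1
  · exact e ▸ h1
  obtain ⟨x, hx⟩ : ∃ x, g x ≠ x := not_forall.1 fun k => e (Equiv.ext k)
  have k : ∀ z, s z ((swap x (g x) * g) z) := fun z => s.trans (hg z) (by
    rw [Perm.mul_apply, swap_apply_def]
    split_ifs with a b
    exacts [a ▸ (a ▸ hg x :), b ▸ s.symm (hg x), s.refl _])
  simpa using h _ x (g x) k hx.symm (hg x) (ih _ (hN ▸ card_support_swap_mul hx) k rfl)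

open Classical in
/-- The class of `x`. -/
noncomputable def cls (s : Setoid α) (x : α) : Finset α := univ.filter (s x)

omit [DecidableEq α] in
@[simp] theorem mem_cls {x y : α} : y ∈ cls s x ↔ s x y := by simp [cls]

omit [DecidableEq α] in
theorem card_cls (hs : ∀ g ∈ H, ∀ x y, s x y → s (g x) (g y)) {g : Perm α} (hg : g ∈ H) (x : α) :
    #(cls s (g x)) = #(cls s x) :=
  (card_equiv g fun y => by
    simpa using ⟨hs g hg x y, fun h => by simpa using hs _ (H.inv_mem hg) _ _ h⟩).symm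

theorem exists_rho (hp : p.Prime) (e : ℕ) (h : ¬ p ∣ H.index)
    (hs : ∀ g ∈ H, ∀ x y, s x y → s (g x) (g y)) : ∃ ρ : Finset α, #ρ < p ^ e ∧ ∀ x,
      p ^ e ∣ #(cls s x \ ρ) ∨ #(cls s x) ∣ p ^ e ∧ ∃ g ∈ H, ¬ s x (g x) ∧ #g.support ≤ p ^ e := by
  classical
  have := NeZero.mk (pow_pos hp.pos e).ne'
  obtain ⟨f, h1, h2⟩ := exists_fam hp (Multiplicative (ZMod (p ^ e))) (e := e) (L := ⊤) (by simp)
    (by simpa using h) fun _ _ => trivial
  refine ⟨_, h2, fun x => or_iff_not_imp_left.2 fun h3 => ?_⟩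
  obtain ⟨i, a, b, ha, hb⟩ : ∃ i a b, s x (f (i, a)) ∧ ¬ s x (f (i, b)) := by
    by_contra! k
    refine h3 ⟨#(univ.filter fun i => s x (f (i, 1))), ?_⟩
    rw [show _ \ _ = ((univ.filter fun i => s x (f (i, 1))) ×ˢ univ).map f from Finset.ext fun z => by
      simpa using ⟨fun ⟨u, i, a, e⟩ => ⟨i, k i a 1 (e ▸ u), a, e⟩,
        fun ⟨i, u, a, e⟩ => ⟨e ▸ k i 1 a u, i, a, e⟩⟩]
    simp [mul_comm]
  choose g hg h4 h5 using h1 i
  have h6 : ∀ z, s x z → ¬ s z (g (b * a⁻¹) z) := fun z hz k => hb (s.trans hz (s.trans k (by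
    simpa [h4] using hs _ (hg (b * a⁻¹)) _ _ (s.trans (s.symm hz) ha))))
  let K : Subgroup (Multiplicative (ZMod (p ^ e))) :=
    { carrier := {t | s (f (i, a)) (f (i, t * a))}
      one_mem' := by simp
      mul_mem' := fun {t u} ht hu => s.trans ht (by simpa [h4, mul_assoc] using hs _ (hg t) _ _ hu)
      inv_mem' := fun {t} ht => s.symm (by simpa [h4] using hs _ (hg t⁻¹) _ _ ht) }
  refine ⟨?_, _, hg _, h6 x (s.refl x), (card_le_card (t := univ.image fun y => f (i, y)) fun z hz => by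
    simpa using by_contra fun k => mem_support.1 hz (h5 _ z (not_exists.1 k))).trans
      (card_image_le.trans (by simp))⟩
  convert K.card_subgroup_dvd_card
  · refine (Nat.card_eq_finsetCard _).symm.trans (Nat.card_eq_of_bijective
      (fun t : K => (⟨f (i, t * a), mem_cls.2 (s.trans ha t.2)⟩ : cls s x))
      ⟨fun t u e => by simpa using e, fun ⟨z, hz⟩ => ?_⟩).symm
    obtain ⟨c, rfl⟩ : ∃ c, f (i, c) = z := by_contra fun k => h6 z (mem_cls.1 hz)
      ((h5 _ z (not_exists.1 k)).symm ▸ s.refl z)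
    exact ⟨⟨c * a⁻¹, by simpa [K] using s.trans (s.symm ha) (mem_cls.1 hz)⟩, by simp⟩
  · simp

theorem sum_mod_lt {d : ℕ} {ρ : Finset α} (h : #ρ < d) {T : Finset α}
    (h1 : (T : Set α).Pairwise fun x y => ¬ s x y) (h2 : ∀ x ∈ T, d ∣ #(cls s x \ ρ)) :
    ∑ x ∈ T, #(cls s x) % d < d := by
  refine lt_of_le_of_lt (sum_le_sum (g := fun x => #(cls s x ∩ ρ)) fun x hx => ?_) ?_
  · obtain ⟨c, hc⟩ := h2 x hx
    rw [← card_sdiff_add_card_inter _ ρ, hc, Nat.mul_add_mod]
    exact Nat.mod_le _ _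
  · rw [← card_biUnion fun x hx y hy e => disjoint_left.2 fun z a b => h1 hx hy e
      (s.trans (mem_cls.1 (mem_inter.1 a).1) (s.symm (mem_cls.1 (mem_inter.1 b).1)))]
    exact (card_le_card (by simp +contextual [subset_iff])).trans_lt h

/-- The relation defined by the transpositions in `M`. -/
def swp (M : Subgroup (Perm α)) : Setoid α where
  r x y := swap x y ∈ M
  iseqv := ⟨fun x => swap_self x ▸ M.one_mem, fun {x y} h => swap_comm x y ▸ h, fun {x y z} h h' => by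
    by_cases e : x = y
    · exact e ▸ h'
    by_cases e' : x = z
    · exact e' ▸ swap_self x ▸ M.one_mem
    simpa [swap_mul_swap_mul_swap e e', swap_comm] using M.mul_mem (M.mul_mem h' h) h'⟩

omit [Fintype α] in
theorem swp_inv (M : Subgroup (Perm α)) : ∀ g ∈ M, ∀ x y, swp M x y → swp M (g x) (g y) :=
  fun g hg x y h => show swap _ _ ∈ M from
    swap_apply_apply g x y ▸ M.mul_mem (M.mul_mem hg h) (M.inv_mem hg)

theorem mem_of_swp {g : Perm α} (h : ∀ z, swp M z (g z)) : g ∈ M :=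
  ind_blocks M.one_mem (fun _ _ _ _ _ => M.mul_mem) h

theorem dvd_card_of_le_cls (hp : p.Prime) {x : α} (h : p ≤ #(cls (swp M) x)) : p ∣ Nat.card M := by
  refine Dvd.dvd.trans ?_ (Subgroup.card_dvd_of_injective ((ofSubtype (p := (· ∈ cls (swp M) x))).codRestrict
    M fun g => mem_of_swp fun z => ?_) fun a b e => ofSubtype_injective (congrArg Subtype.val e))
  · rwa [Nat.card_perm, hp.dvd_factorial, Nat.card_eq_finsetCard]
  · by_cases e : z ∈ cls (swp M) x
    · exact (swp M).trans ((swp M).symm (mem_cls.1 e)) (mem_cls.1 ((ofSubtype_apply_mem_iff_mem ..).2 e))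
    · rw [ofSubtype_apply_of_not_mem g e]

theorem swp_dichotomy (hM : IsPiHall π M) (h2 : 2 ∈ π) {q : ℕ} (hq : q.Prime) (hq2 : q ≠ 2) (hqπ : q ∈ π)
    (hn : q ≤ Fintype.card α) : ∃ x, (∀ y z, ¬ swp M x y → ¬ swp M x z → swp M y z) ∧
      (#(cls (swp M) x) = Fintype.card α ∨ #(cls (swp M) x) + 1 = Fintype.card α ∧
        (Fintype.card α).Prime ∨ #(cls (swp M) x) = 4 ∧ (Fintype.card α = 7 ∨ Fintype.card α = 8)) := by
  have hs := swp_inv M
  have F1 : ∀ p x, p.Prime → p ≤ #(cls (swp M) x) → p ∈ π := fun p x hp h =>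
    hM.1 p hp (dvd_card_of_le_cls hp h)
  have F2 : ∀ x (g : Perm α), g ∈ M → #g.support ≤ 2 → swp M x (g x) := fun x g hg h => by
    by_cases e : g x = x
    · rw [e]
    obtain ⟨a, b, -, rfl⟩ := card_support_eq_two.1 (h.antisymm (two_le_card_support_of_ne_one
      (by rintro rfl; exact e rfl)))
    rw [swap_apply_def] at e ⊢
    split_ifs at e ⊢ with c d
    exacts [c ▸ hg, d ▸ (swp M).symm hg, (e rfl).elim]
  generalize swp M = s at *
  obtain ⟨k, hk⟩ : ∃ k : α → ℕ, ∀ x, #(cls s x) = k x := ⟨_, fun _ => rfl⟩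
  simp only [hk] at F1 ⊢
  have k0 : ∀ x, 1 ≤ k x := fun x => hk x ▸ card_pos.2 ⟨x, mem_cls.2 (s.refl x)⟩
  have k1 : ∀ g ∈ M, ∀ x, k (g x) = k x := fun g hg x => hk x ▸ hk _ ▸ card_cls hs hg x
  have NC : ∀ p e, p.Prime → p ∈ π → ∀ T : Finset α, (T : Set α).Pairwise (fun x y => ¬ s x y) →
      (∀ x ∈ T, k x ∣ p ^ e → ∀ g ∈ M, #g.support ≤ p ^ e → s x (g x)) →
      ∑ x ∈ T, k x % p ^ e < p ^ e := fun p e hp hπ T h1 h3 => by
    obtain ⟨ρ, a, b⟩ := exists_rho hp e (hM.2 p hp hπ) hs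
    simpa only [hk] using sum_mod_lt a h1 fun x hx => (b x).resolve_right fun ⟨c, g, hg, d, e⟩ =>
      d (h3 x hx (hk x ▸ c) g hg e)
  have ne : ∀ {x y}, ¬ s x y → x ≠ y := fun h e => h (e ▸ s.refl _)
  have pw : ∀ {x y}, ¬ s x y → (({x, y} : Finset α) : Set α).Pairwise fun x y => ¬ s x y := fun h => by
    simpa [Set.pairwise_pair] using fun _ => ⟨h, fun e => h (s.symm e)⟩
  have P2 : ∀ x y, ¬ s x y → k x % 2 + k y % 2 < 2 := fun x y h => by
    simpa [sum_pair (ne h)] using NC 2 1 Nat.prime_two h2 _ (pw h) fun z _ _ => F2 z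
  have NO : ∀ p e, p.Prime → p ≠ 2 → p ∈ π → ∀ T : Finset α, (T : Set α).Pairwise (fun x y => ¬ s x y) →
      ∑ x ∈ T, k x % p ^ e < p ^ e := fun p e hp h hπ T h1 =>
    NC p e hp hπ T h1 fun x _ h3 g hg _ => by_contra fun h4 => by
      have := P2 x _ h4
      have := Nat.odd_iff.1 (((hp.odd_of_ne_two h).pow (n := e)).of_dvd_nat h3)
      have := k1 g hg x
      omega
  have N2 : ∀ p e x y, p.Prime → p ≠ 2 → p ∈ π → ¬ s x y → k x % p ^ e + k y % p ^ e < p ^ e :=
    fun p e x y hp h hπ h1 => sum_pair (f := fun x => k x % p ^ e) (ne h1) ▸ NO p e hp h hπ _ (pw h1)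
  obtain ⟨x₀, hx₀⟩ : ∃ x, q ≤ k x := by
    by_contra! h
    obtain ⟨ρ, a, b⟩ := exists_rho hq 1 (hM.2 q hq hqπ) hs
    refine (a.trans_le (pow_one q ▸ hn)).not_ge (card_le_card fun x _ => by_contra fun c => ?_)
    obtain d | ⟨d, g, hg, e, -⟩ := b x
    · exact (h x).not_ge ((pow_one q ▸ Nat.le_of_dvd (card_pos.2 ⟨x, by simp [c]⟩) d).trans
        (hk x ▸ card_le_card sdiff_subset))
    · have := P2 x _ e
      have := Nat.odd_iff.1 (((hq.odd_of_ne_two hq2).pow (n := 1)).of_dvd_nat (hk x ▸ d))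
      have := k1 g hg x
      omega
  have h3 := F1 3 x₀ Nat.prime_three (le_trans (by have := hq.two_le; omega) hx₀)
  have S : ∀ x y, ¬ s x y → k x = k y → k x = 4 := fun x y h e => by
    have a := P2 x y h
    have b := N2 3 1 x y Nat.prime_three (by omega) h3 h
    have c := k0 x
    have d : k x ∣ 2 ^ (Nat.log 2 (k x) + 1) := by_contra fun d => by
      have f := NC 2 (Nat.log 2 (k x) + 1) Nat.prime_two h2 _ (pw h) (by simp +contextual [d, ← e])
      have := Nat.pow_log_le_self 2 (x := k x) (by omega)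
      rw [sum_pair (ne h), ← e, Nat.mod_eq_of_lt (Nat.lt_pow_succ_log_self one_lt_two _), pow_succ] at f
      omega
    obtain ⟨f, -, hf⟩ := (Nat.dvd_prime_pow Nat.prime_two).1 d
    exact same hf (by omega) fun p i hp h1 h4 => by simpa [← e] using N2 p i x y hp h1 (F1 p x hp h4) h
  have fin : ∀ x y, ¬ s x y → (∀ z, ¬ s x z → s y z) →
      (∀ y z, ¬ s x y → ¬ s x z → s y z) ∧ k x + k y = Fintype.card α := fun x y h h1 =>
    ⟨fun a b c d => s.trans (s.symm (h1 a c)) (h1 b d), by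
      rw [← card_add_card_compl (cls s x), ← hk, ← hk]
      exact congrArg _ (congrArg _ (Finset.ext fun z => by
        simpa using ⟨fun a b => h (s.trans b (s.symm a)), h1 z⟩))⟩
  by_cases hA : ∃ x y, ¬ s x y ∧ k x = k y
  · obtain ⟨x, y, h, e⟩ := hA
    have a := S x y h e
    obtain ⟨b, c⟩ := fin x y h fun z hz => by_contra fun hz' => by
      have d := fun i => NO 3 i Nat.prime_three (by omega) h3 {x, y, z} (by
        simp [Set.Pairwise, h, hz, hz', mt s.symm' h, mt s.symm' hz, mt s.symm' hz'])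
      simp only [sum_insert (show x ∉ ({y, z} : Finset α) by simp [ne h, ne hz]), sum_pair (ne hz')] at d
      have := d 1
      have := d 2
      have := fun f => N2 5 1 x y Nat.prime_five (by omega) (F1 5 z Nat.prime_five f) h
      have := k0 z
      omega
    exact ⟨x, b, by omega⟩
  have pr : ∀ x y, ¬ s x y → k y ≤ k x → (k y = 1 ∧ (k x + 1).Prime) ∨ (k x = 4 ∧ k y = 3) :=
    fun x y h e => pair (k0 y) (e.lt_of_ne fun e => hA ⟨x, y, h, e.symm⟩) fun p i hp h1 =>
      sum_pair (f := fun x => k x % p ^ i) (ne h) ▸ NC p i hp (F1 p x hp h1) _ (pw h)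
        fun z _ _ g hg _ => by_contra fun h4 => hA ⟨_, _, h4, (k1 g hg z).symm⟩
  obtain ⟨x, -, hx⟩ := exists_max_image univ k ⟨x₀, mem_univ _⟩
  by_cases hB : ∀ y, s x y
  · exact ⟨x, fun y _ h => (h (hB y)).elim, .inl (hk x ▸ congrArg _ (eq_univ_of_forall (by simpa)))⟩
  obtain ⟨y, h⟩ := not_forall.1 hB
  have a := pr x y h (hx y (mem_univ _))
  obtain ⟨b, c⟩ := fin x y h fun z hz => by_contra fun hz' => by
    have := pr x z hz (hx z (mem_univ _))
    have := P2 y z hz'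
    omega
  exact ⟨x, b, .inr (a.imp (fun a => by rw [← c, a.1]; exact ⟨rfl, a.2⟩) fun a => by omega)⟩

end Cfsg.Agent.HallSym
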