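import Cfsg.Agent.HallSym.Blocks

/-!
# Hall subgroups of symmetric and alternating groups
-/

set_option autoImplicit false

namespace Cfsg.Agent.HallSym

open Equiv Equiv.Perm Finset
open scoped Pointwise

section General

variable {G : Type*} [Group G] [Finite G] {π : Set ℕ} {H K : Subgroup G}

theorem maximal_of_hall (h : IsPiHall π H) : Maximal (IsPiSubgroup π) H :=
  ⟨h.1, fun _ hK e => (Solv.Pi.hallOf_eq_of_le (Solv.Pi.isPiHallOf_top.2 h) e le_top hK).le⟩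

theorem dpi_of_le_one (h : ∀ r s : ℕ, r.Prime → s.Prime → r ∈ π → s ∈ π → r ∣ Nat.card G →
    s ∣ Nat.card G → r = s) : IsDPiGroup π G := fun H K hH hK => by
  by_cases h1 : ∃ p, p.Prime ∧ p ∈ π ∧ p ∣ Nat.card G
  · obtain ⟨p, hp, h2, h3⟩ := h1
    have := Fact.mk hp
    rw [show IsPiSubgroup (G := G) π = fun K : Subgroup G => IsPGroup p K from funext fun K => propext
      ⟨fun hK => IsPGroup.of_card (Nat.eq_prime_pow_of_unique_prime_dvd Nat.card_pos.ne' fun hr e =>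
        h _ _ hr hp (hK _ hr e) h2 (e.trans K.card_subgroup_dvd_card) h3), fun hK r hr e => by
          obtain ⟨n, hn⟩ := hK.exists_card_eq
          rwa [(Nat.prime_dvd_prime_iff_eq hr hp).1 (hr.dvd_of_dvd_pow (hn ▸ e))]⟩] at hH hK
    obtain ⟨g, hg⟩ := MulAction.exists_smul_eq G
      (⟨H, hH.1, fun a b => hH.eq_of_ge a b⟩ : Sylow p G) ⟨K, hK.1, fun a b => hK.eq_of_ge a b⟩
    exact ⟨g, (congrArg Sylow.toSubgroup hg).symm⟩
  · have : ∀ K : Subgroup G, IsPiSubgroup π K → K = ⊥ := fun K hK => Subgroup.card_eq_one.1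
      (Nat.eq_one_iff_not_exists_prime_dvd.2 fun p hp e =>
        h1 ⟨p, hp, hK p hp e, e.trans K.card_subgroup_dvd_card⟩)
    exact ⟨1, by rw [this H hH.1, this K hK.1, Subgroup.map_bot]⟩

theorem exists_hall_ge (h : IsDPiGroup π G) (hK : IsPiSubgroup π K) : ∃ H, IsPiHall π H ∧ K ≤ H := by
  obtain ⟨H, h1, h2⟩ := Finite.exists_le_maximal hK
  refine ⟨H, ⟨h2.1, fun p hp hπ e => ?_⟩, h1⟩
  have := Fact.mk hp
  obtain ⟨P⟩ : Nonempty (Sylow p G) := inferInstance
  obtain ⟨L, h3, h4⟩ := Finite.exists_le_maximal (show IsPiSubgroup π (P : Subgroup G) from fun r hr e => by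
    obtain ⟨n, hn⟩ := P.isPGroup'.exists_card_eq
    rwa [(Nat.prime_dvd_prime_iff_eq hr hp).1 (hr.dvd_of_dvd_pow (hn ▸ e))])
  obtain ⟨g, rfl⟩ := h L H h4 h2
  rw [Subgroup.index_map_of_bijective (MulAut.conj g).bijective] at e
  exact P.not_dvd_index (e.trans (Subgroup.index_dvd_of_le h3))

theorem pi_of_sq (hH : IsPiSubgroup π H) (h2 : 2 ∈ π) (h : ∀ g ∈ K, g ^ 2 ∈ H) : IsPiSubgroup π K :=
  fun p hp e => by
    have := Fact.mk hp
    obtain ⟨g, rfl⟩ := exists_prime_orderOf_dvd_card' p e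
    refine (eq_or_ne (orderOf g) 2).elim (· ▸ h2) fun h1 => hH _ hp ?_
    rw [← ((Nat.coprime_primes hp Nat.prime_two).2 h1).orderOf_pow, ← Subgroup.orderOf_coe]
    exact H.orderOf_dvd_natCard (h g g.2)

end General

variable {α : Type*} [Fintype α] [DecidableEq α] {M : Subgroup (Perm α)} {π : Set ℕ} {U U' : Finset α}

/-- The stabiliser of the pair `{U, U'}`. -/
def W (U U' : Finset α) : Subgroup (Perm α) where
  carrier := {g | ((∀ x, g x ∈ U ↔ x ∈ U) ∧ ∀ x, g x ∈ U' ↔ x ∈ U') ∨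
    (∀ x, g x ∈ U ↔ x ∈ U') ∧ ∀ x, g x ∈ U' ↔ x ∈ U}
  one_mem' := .inl (by simp)
  mul_mem' := by rintro a b (h | h) (h' | h') <;> simp [h, h']
  inv_mem' := by
    rintro a (h | h)
    exacts [.inl ⟨fun x => by simp [← h.1 (a.symm x)], fun x => by simp [← h.2 (a.symm x)]⟩,
      .inr ⟨fun x => by simp [← h.2 (a.symm x)], fun x => by simp [← h.1 (a.symm x)]⟩]

omit [Fintype α] [DecidableEq α] in
theorem sq_of_mem_W {g : Perm α} (h : g ∈ W U U') :
    (∀ x, (g ^ 2) x ∈ U ↔ x ∈ U) ∧ ∀ x, (g ^ 2) x ∈ U' ↔ x ∈ U' := by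
  obtain h | h := h <;> simp [sq, h]

theorem not_dvd_card_W {r : ℕ} (hr : r.Prime) (h2 : r ≠ 2) (h1 : #U < r) (h3 : #U' < r)
    (h4 : #(U ∪ U')ᶜ < r) : ¬ r ∣ Nat.card (W U U') := fun e => by
  have := Fact.mk hr
  obtain ⟨g, rfl⟩ := exists_prime_orderOf_dvd_card' r e
  have k := ((Nat.coprime_primes hr Nat.prime_two).2 h2).orderOf_pow
  obtain ⟨x, hx⟩ : ∃ x, (g.1 ^ 2) x ≠ x := not_forall.1 fun e => hr.one_lt.ne' (by
    rw [← k, show g ^ 2 = 1 from Subtype.ext (Equiv.ext e), orderOf_one])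
  have key : ∀ T : Finset α, x ∈ T → (∀ y, (g.1 ^ 2) y ∈ T ↔ y ∈ T) → orderOf g ≤ #T := fun T h hT => by
    have := dvd_card_of_pow_apply (H := ⊤) (g := subtypePerm _ hT) (x := ⟨x, h⟩) hr trivial (by
      rw [subtypePerm_pow]
      refine Subtype.ext (show ((g.1 ^ 2) ^ orderOf g) x = x from ?_)
      rw [← pow_mul, mul_comm, pow_mul, ← Subgroup.orderOf_coe, pow_orderOf_eq_one, one_pow,
        Perm.one_apply]) (by
      simpa [Subtype.ext_iff] using hx)
    rwa [Subgroup.card_top, Nat.card_perm, hr.dvd_factorial, Nat.card_eq_finsetCard] at this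
  have h5 := sq_of_mem_W g.2
  by_cases a : x ∈ U
  · exact h1.not_ge (key U a h5.1)
  by_cases b : x ∈ U'
  · exact h3.not_ge (key U' b h5.2)
  · exact h4.not_ge (key _ (by simp [a, b]) (by simp [h5]))

theorem map_W (U : Finset α) (g : Perm α) : W (U.map g.toEmbedding) (U.map g.toEmbedding)ᶜ =
    (W U Uᶜ).map (MulAut.conj g).toMonoidHom := by
  ext k
  rw [Grp.mem_map_conj_iff]
  simp only [W, Subgroup.mem_mk, Submonoid.mem_mk, Subsemigroup.mem_mk, Set.mem_ofPred_eq,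
    g.surjective.forall (p := fun x => k x ∈ _ ↔ _)]
  simp

omit [Fintype α] in
theorem mem_stab {g : Perm α} : g ∈ MulAction.stabilizer (Perm α) U ↔ ∀ x, g x ∈ U ↔ x ∈ U :=
  MulAction.mem_stabilizer_finset

theorem index_W (U : Finset α) : (MulAction.stabilizer (Perm α) U).relIndex (W U Uᶜ) *
    (W U Uᶜ).index = (Fintype.card α).choose #U := by
  rw [Subgroup.relIndex_mul_index (K := W U Uᶜ) fun g hg => Or.inl (by simp [mem_stab.1 hg]),
    MulAction.index_stabilizer, ← card_univ, ← card_powersetCard, ← Set.ncard_coe_finset]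
  refine congrArg _ (Set.ext fun V => ⟨?_, fun h => ?_⟩)
  · rintro ⟨g, rfl⟩
    simp
  · obtain ⟨g, rfl⟩ := Perm.exists_map_finset_eq U V (by simpa [eq_comm] using h)
    exact ⟨g, (map_eq_image g.toEmbedding U).symm⟩

/-- The three types of Hall subgroups. -/
def Typ (π : Set ℕ) (n k : ℕ) : Prop :=
  k = n ∧ (∀ r : ℕ, r.Prime → r ≤ n → r ∈ π) ∨
    k + 1 = n ∧ n.Prime ∧ (∀ r : ℕ, r.Prime → r ≤ n → (r ∈ π ↔ r < n)) ∨
    k = 4 ∧ (n = 7 ∨ n = 8) ∧ ∀ r : ℕ, r.Prime → r ≤ n → (r ∈ π ↔ r = 2 ∨ r = 3)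

theorem Typ.eq {n k l : ℕ} (h : Typ π n k) (h' : Typ π n l) : k = l := by
  have h5 := Nat.prime_five
  obtain h | h | h := h <;> obtain h' | h' | h' := h' <;> first | omega | grind

theorem two_mem (hM : IsPiHall π M) {p q : ℕ} (hp : p.Prime) (hq : q.Prime) (h : p ≠ q) (h1 : p ∈ π)
    (h2 : q ∈ π) (h3 : p ≤ Fintype.card α) (h4 : q ≤ Fintype.card α) : 2 ∈ π :=
  hM.1 2 Nat.prime_two (h.lt_or_gt.elim (fun e => two_dvd_card hp hq e h4 (hM.2 p hp h1) (hM.2 q hq h2))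
    fun e => two_dvd_card hq hp e h3 (hM.2 q hq h2) (hM.2 p hp h1))

theorem exists_eq_W (hM : IsPiHall π M) {p q : ℕ} (hp : p.Prime) (hq : q.Prime) (h : p ≠ q) (h1 : p ∈ π)
    (h2 : q ∈ π) (h3 : p ≤ Fintype.card α) (h4 : q ≤ Fintype.card α) :
    ∃ U : Finset α, M = W U Uᶜ ∧ Typ π (Fintype.card α) #U := by
  have h5 := two_mem hM hp hq h h1 h2 h3 h4
  obtain ⟨x, h6, h7⟩ := (eq_or_ne p 2).elim (fun e => swp_dichotomy hM h5 hq (e ▸ h.symm) h2 h4)
    fun e => swp_dichotomy hM h5 hp e h1 h3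
  have hs := swp_inv M
  have h8 : M = W (cls (swp M) x) (cls (swp M) x)ᶜ := by
    refine ((maximal_of_hall hM).eq_of_le (pi_of_sq hM.1 h5 fun g hg => mem_of_swp fun z => ?_)
      fun g hg => ?_)
    · have := (sq_of_mem_W hg).1 z
      simp only [mem_cls] at this
      by_cases e : swp M x z
      exacts [(swp M).trans ((swp M).symm e) (this.2 e), h6 _ _ e (mt this.1 e)]
    have k : ∀ y, swp M (g x) (g y) ↔ swp M x y := fun y =>
      ⟨fun h => by simpa using hs _ (M.inv_mem hg) _ _ h, hs g hg _ _⟩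
    by_cases e : swp M x (g x)
    · have : ∀ y, swp M x (g y) ↔ swp M x y := fun y =>
        ⟨fun h => (k y).1 ((swp M).trans ((swp M).symm e) h), fun h => (swp M).trans e ((k y).2 h)⟩
      exact .inl (by simp [this])
    · have : ∀ y, swp M x (g y) ↔ ¬ swp M x y := fun y =>
        ⟨fun h h' => e ((swp M).trans h ((swp M).symm ((k y).2 h'))),
          fun h => by_contra fun h' => h ((k y).1 (h6 _ _ e h'))⟩
      exact .inr (by simp [this])
  have k1 : ∀ r, r.Prime → r ≤ #(cls (swp M) x) → r ∈ π := fun r hr h =>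
    hM.1 r hr (dvd_card_of_le_cls hr h)
  refine ⟨_, h8, ?_⟩
  generalize cls (swp M) x = U at *
  have k2 : ∀ r, r.Prime → r ≠ 2 → r ≤ Fintype.card α → #U < r → Fintype.card α - #U < r → r ∉ π :=
    fun r hr a b c d e => hr.not_dvd_mul (h8 ▸ not_dvd_card_W hr a c (card_compl U ▸ d) (by simp [hr.pos]))
      (hM.2 r hr e) (by simpa [M.card_mul_index, Fintype.card_perm, hr.dvd_factorial])
  refine h7.imp (fun a => ⟨a, a ▸ k1⟩) (Or.imp (fun a => ⟨a.1, a.2, fun r hr b => ⟨fun c => ?_,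
    fun c => k1 r hr (by omega)⟩⟩) fun a => ⟨a.1, a.2, fun r hr b => ⟨fun c => ?_, fun c => k1 r hr (by omega)⟩⟩)
  · have := hp.two_le
    have := hq.two_le
    exact by_contra fun d => k2 r hr (by omega) b (by omega) (by omega) c
  · have := hr.two_le
    have := hr.eq_two_or_odd
    exact by_contra fun d => k2 r hr (by omega) b (by omega) (by omega) c

theorem hall_W (h : Typ π (Fintype.card α) #U) (h2 : 2 ∈ π) : IsPiHall π (W U Uᶜ) := by
  have h1 := index_W U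
  have k : ∀ r, r.Prime → r ∣ Nat.card (W U Uᶜ) → r ≤ Fintype.card α := fun r hr e => by
    simpa [Fintype.card_perm, hr.dvd_factorial] using e.trans (Subgroup.card_subgroup_dvd_card _)
  have k2 : ∀ r, r.Prime → r ∣ Nat.card (W U Uᶜ) → r ≠ 2 → #U < r → r ≤ Fintype.card α - #U :=
    fun r hr e a b => by_contra fun c => not_dvd_card_W hr a b (card_compl U ▸ not_le.1 c) (by simp [hr.pos]) e
  obtain ⟨a, b⟩ | ⟨a, b, c⟩ | ⟨a, b, c⟩ := h
  · exact ⟨fun r hr e => b r hr (k r hr e), fun r hr _ => by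
      rw [Nat.eq_one_of_mul_eq_one_left (h1.trans (a ▸ Nat.choose_self _))]
      exact hr.not_dvd_one⟩
  · refine ⟨fun r hr e => by_contra fun d => ?_, fun r hr d e => ?_⟩
    · have := k2 r hr e (by rintro rfl; exact d h2)
      have := mt (c r hr (k r hr e)).2 d
      have := hr.two_le
      omega
    · rw [← a, Nat.choose_succ_self_right, a] at h1
      obtain rfl := (Nat.prime_dvd_prime_iff_eq hr b).1 (e.trans (Dvd.intro_left _ h1))
      exact lt_irrefl _ ((c _ hr le_rfl).1 d)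
  refine ⟨fun r hr e => by_contra fun d => ?_, fun r hr d e => ?_⟩
  · have := k2 r hr e (by rintro rfl; exact d h2)
    have := mt (c r hr (k r hr e)).2 d
    have := hr.two_le
    have := hr.eq_two_or_odd
    omega
  have h3 : (W U Uᶜ).index ∣ 35 := by
    rcases b with b | b
    · exact Dvd.intro_left _ (by rw [h1, a, b]; rfl)
    obtain ⟨g, hg⟩ := Perm.exists_map_finset_eq U Uᶜ (by rw [card_compl, a, b])
    have h4 : ∀ x, g x ∈ U ↔ x ∉ U := fun x => by
      rw [← mem_map' g.toEmbedding (a := x), hg]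
      simp
    obtain ⟨x, hx⟩ := card_pos.1 (show 0 < #U by omega)
    rw [Subgroup.relIndex_eq_two_iff.2 ⟨g, Or.inr (by simp [h4]), ?_⟩, a, b] at h1
    · exact dvd_of_eq (Nat.eq_of_mul_eq_mul_left two_pos h1)
    rintro k (hk | hk)
    · exact .inr ⟨mem_stab.2 hk.1, fun e => by simpa [hk, h4, hx] using mem_stab.1 e x⟩
    · exact .inl ⟨mem_stab.2 (by simp [hk, h4]), fun e => by simpa [hk, hx] using mem_stab.1 e x⟩
  obtain rfl | rfl := (Nat.Prime.dvd_mul hr (m := 5) (n := 7)).1 (e.trans h3) |>.imp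
    (Nat.prime_dvd_prime_iff_eq hr Nat.prime_five).1 (Nat.prime_dvd_prime_iff_eq hr Nat.prime_seven).1 <;>
    simpa using (c _ hr (by omega)).1 d

theorem hall_conj {M' : Subgroup (Perm α)} (hM : IsPiHall π M) (hM' : IsPiHall π M') :
    ∃ g, M' = M.map (MulAut.conj g).toMonoidHom := by
  by_cases h : ∀ r s : ℕ, r.Prime → s.Prime → r ∈ π → s ∈ π → r ∣ Nat.card (Perm α) →
    s ∣ Nat.card (Perm α) → r = s
  · exact dpi_of_le_one h _ _ (maximal_of_hall hM) (maximal_of_hall hM')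
  push Not at h
  obtain ⟨p, q, hp, hq, h1, h2, h3, h4, h⟩ := h
  simp only [Nat.card_eq_fintype_card, Fintype.card_perm, hp.dvd_factorial, hq.dvd_factorial] at h3 h4
  obtain ⟨U, rfl, h5⟩ := exists_eq_W hM hp hq h h1 h2 h3 h4
  obtain ⟨V, rfl, h6⟩ := exists_eq_W hM' hp hq h h1 h2 h3 h4
  obtain ⟨g, rfl⟩ := Perm.exists_map_finset_eq U V (h5.eq h6)
  exact ⟨g, map_W U g⟩

section Alt

variable {H : Subgroup (Perm α)} {x y z w v : α}

/-- `H` contains the `3`-cycles on `x, y, z`. -/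
def Tri (H : Subgroup (Perm α)) (x y z : α) : Prop :=
  x ≠ y ∧ x ≠ z ∧ y ≠ z ∧ swap x y * swap x z ∈ H

omit [Fintype α]

theorem Tri.map (h : Tri H x y z) {g : Perm α} (hg : g ∈ H) : Tri H (g x) (g y) (g z) :=
  ⟨g.injective.ne h.1, g.injective.ne h.2.1, g.injective.ne h.2.2.1, by
    simpa [swap_apply_apply, mul_assoc] using H.mul_mem hg (H.mul_mem h.2.2.2 (H.inv_mem hg))⟩

theorem Tri.rot (h : Tri H x y z) : Tri H z x y := by
  simpa [swap_apply_def, h.1, h.2.1, h.2.2.1, h.1.symm, h.2.1.symm, h.2.2.1.symm] using h.map h.2.2.2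

theorem Tri.inv (h : Tri H x y z) : Tri H x z y :=
  ⟨h.2.1, h.1, h.2.2.1.symm, by simpa using H.inv_mem h.2.2.2⟩

theorem Tri.trans' (h : Tri H x y z) (h' : Tri H x w z) (e : y ≠ w) : Tri H x y w := by
  refine Tri.inv (Tri.rot ?_)
  simpa [swap_apply_def, h.1.symm, h.2.2.1, e, h'.1.symm, h'.2.2.1, h'.2.2.1.symm, h.2.1.symm] using
    h.map h'.inv.2.2.2

theorem Tri.trans (h : Tri H x y z) (h' : Tri H x w v) (e : y ≠ w) : Tri H x y w := by
  obtain rfl | a := eq_or_ne z w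
  · exact h
  obtain rfl | b := eq_or_ne y v
  · exact h'.inv
  obtain rfl | c := eq_or_ne z v
  · exact h.trans' h' e
  have : Tri H w y z := by
    simpa [swap_apply_def, h.1.symm, h.2.1.symm, a, b, c, e, h'.1.symm, h'.2.2.1] using
      h.map h'.inv.2.2.2
  exact (h.rot.rot.inv.trans' this.rot.rot.inv h'.1).rot.rot.inv

/-- The relation defined by the `3`-cycles in `H`. -/
def tri (H : Subgroup (Perm α)) : Setoid α where
  r x y := x = y ∨ ∃ z, Tri H x y z
  iseqv := ⟨fun _ => .inl rfl, fun h => h.imp Eq.symm fun ⟨z, h⟩ => ⟨z, h.rot.rot.inv⟩, by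
    rintro x y z (rfl | ⟨a, h⟩) (rfl | ⟨b, h'⟩)
    exacts [.inl rfl, .inr ⟨b, h'⟩, .inr ⟨a, h⟩, or_iff_not_imp_left.2 fun e =>
      ⟨y, (h.rot.rot.inv.trans h' e).rot.rot⟩]⟩

theorem swap_mul_swap_mem (h1 : x ≠ y) (h2 : z ≠ w) (h3 : tri H x y) (h4 : tri H x z) (h5 : tri H z w) :
    swap x y * swap z w ∈ H := by
  have key : ∀ a b c, a ≠ b → a ≠ c → tri H a b → tri H a c → swap a b * swap a c ∈ H :=
    fun a b c k1 k2 k3 k4 => by
      obtain rfl | e := eq_or_ne b c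
      · simp
      obtain ⟨_, k3⟩ := k3.resolve_left k1
      obtain ⟨_, k4⟩ := k4.resolve_left k2
      exact (k3.trans k4 e).2.2.2
  obtain rfl | e := eq_or_ne x z
  · exact key _ _ _ h1 h2 h3 h5
  simpa [mul_assoc, swap_comm z x] using
    H.mul_mem (key _ _ _ h1 e h3 h4) (key _ _ _ e.symm h2 ((tri H).symm h4) h5)

end Alt

theorem exists_pi_ge {H : Subgroup (Perm α)} (hH : IsPiSubgroup π H) (h2 : 2 ∈ π) {x y z : α}
    (h : Tri H x y z) : ∃ M, IsPiSubgroup π M ∧ H ≤ M ∧ swap x y ∈ M := by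
  let N : Subgroup (Perm α) :=
    { carrier := {g | ∀ z, tri H z (g z)}
      one_mem' := fun z => (tri H).refl z
      mul_mem' := fun ha hb z => (tri H).trans (hb z) (ha _)
      inv_mem' := fun {g} h z => (tri H).symm (by simpa using h (g.symm z)) }
  refine ⟨H ⊔ N, Solv.Pi.pi_of_dvd (Grp.card_sup_dvd_of_le_normalizer fun g hg =>
    Subgroup.mem_normalizer_fintype fun k hk z => ?_) (Solv.Pi.pi_mul hH (pi_of_sq hH h2 fun g hg =>
      ind_blocks (P := fun g => g ^ 2 ∈ H) (by simp) (fun g a b h1 h3 h4 h5 => ?_) hg)), le_sup_left,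
        Subgroup.mem_sup_right fun w => ?_⟩
  · simpa using show tri H (g (g.symm z)) (g (k (g.symm z))) from
      (hk (g.symm z)).imp (congrArg g) fun ⟨w, h⟩ => ⟨_, h.map hg⟩
  · simpa [swap_apply_apply, sq, mul_assoc] using H.mul_mem (swap_mul_swap_mem h3 (g.injective.ne h3) h4
      (h1 a) ((tri H).trans ((tri H).symm (h1 a)) ((tri H).trans h4 (h1 b)))) h5
  · rw [swap_apply_def]
    split_ifs with a b
    exacts [a ▸ .inr ⟨z, h⟩, b ▸ .inr ⟨z, h.rot.rot.inv⟩, .inl rfl]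

theorem exists_hall_inf {H : Subgroup (Perm α)} (h : IsPiHallOf π H (alternatingGroup α)) :
    ∃ M, IsPiHall π M ∧ M ⊓ alternatingGroup α = H := by
  have h0 : (alternatingGroup α).index ∣ 2 := by
    rcases subsingleton_or_nontrivial α with _ | _
    · simp [alternatingGroup.index_eq_one]
    · rw [alternatingGroup.index_eq_two]
  have h1 : ∀ p, p.Prime → p ∈ π → p ≠ 2 → ¬ p ∣ H.index := fun p hp a b => Subgroup.relIndex_mul_index h.1 ▸
    hp.not_dvd_mul (h.2.2 p hp a) fun e => b ((Nat.prime_dvd_prime_iff_eq hp Nat.prime_two).1 (e.trans h0))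
  suffices ∃ M, IsPiSubgroup π M ∧ H ≤ M ∧ (2 ∈ π → ¬ 2 ∣ M.index) by
    obtain ⟨M, a, b, c⟩ := this
    exact ⟨M, ⟨a, fun p hp d => (eq_or_ne p 2).elim (fun e => e ▸ c (e ▸ d)) fun e k =>
      h1 p hp d e (k.trans (Subgroup.index_dvd_of_le b))⟩, Solv.Pi.hallOf_eq_of_le h (le_inf b h.1)
        inf_le_right (Solv.Pi.pi_of_dvd (Subgroup.card_dvd_of_le inf_le_left) a)⟩
  by_cases h2 : 2 ∈ π
  swap
  · exact ⟨H, h.2.1, le_rfl, fun e => absurd e h2⟩
  by_cases h3 : ∀ q, q.Prime → q ∣ Nat.card H → q = 2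
  · obtain ⟨P, hP⟩ := (IsPGroup.of_card (Nat.eq_prime_pow_of_unique_prime_dvd Nat.card_pos.ne'
      (h3 _))).exists_le_sylow
    obtain ⟨n, hn⟩ := P.isPGroup'.exists_card_eq
    exact ⟨P, fun r hr e => (Nat.prime_dvd_prime_iff_eq hr Nat.prime_two).1
      (hr.dvd_of_dvd_pow (hn ▸ e)) ▸ h2, hP, fun _ => P.not_dvd_index⟩
  push Not at h3
  obtain ⟨q, hq, h3, h4⟩ := h3
  have k : ∀ r, r.Prime → r ∣ Nat.card H → r ≤ Fintype.card α := fun r hr e => by
    simpa [Fintype.card_perm, hr.dvd_factorial] using e.trans (Subgroup.card_subgroup_dvd_card _)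
  have h5 : 3 ∣ Nat.card H := (eq_or_ne q 3).elim (· ▸ h3) fun e => three_dvd_card hq
    (hq.five_le_of_ne_two_of_ne_three h4 e) (k q hq h3) (h.2.2 2 Nat.prime_two h2)
      (h1 q hq (h.2.1 q hq h3) h4)
  obtain ⟨x, y, z, a, b, c⟩ := Fintype.two_lt_card_iff.1 (k 3 Nat.prime_three h5)
  obtain ⟨g, hg⟩ := Solv.exists_le_conj_of_isPGroup_of_not_dvd_index (IsPGroup.of_card (n := 1)
    ((Nat.card_zpowers _).trans (isThreeCycle_swap_mul_swap_same a b c).orderOf))
    (h1 3 Nat.prime_three (h.2.1 3 Nat.prime_three h5) (by omega))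
  obtain ⟨M, d, e, f⟩ := exists_pi_ge h.2.1 h2 (x := g⁻¹ x) (y := g⁻¹ y) (z := g⁻¹ z)
    ⟨g⁻¹.injective.ne a, g⁻¹.injective.ne b, g⁻¹.injective.ne c, by
      simpa only [swap_apply_apply, mul_assoc, inv_inv, mul_inv_cancel_left] using
        Grp.mem_conj_smul_iff.1 (hg (Subgroup.mem_zpowers _))⟩
  refine ⟨M, d, e, fun _ k => h.2.2 2 Nat.prime_two h2 (Dvd.dvd.trans ?_
    (Subgroup.relIndex_dvd_of_le_left _ e))⟩
  have := Subgroup.relIndex_mul_index (inf_le_left : M ⊓ alternatingGroup α ≤ _)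
  rw [← Subgroup.relIndex_mul_index inf_le_right, Subgroup.inf_relIndex_left, Subgroup.inf_relIndex_right,
    ((Nat.dvd_prime Nat.prime_two).1 ((Subgroup.relIndex_dvd_index_of_normal _ M).trans h0)).resolve_left
      fun e => a (by simpa using Subgroup.relIndex_eq_one.1 e f)] at this
  obtain e | e := (Nat.dvd_prime Nat.prime_two).1 h0 <;> rw [e] at this <;> omega

theorem hall_alt_iff {H : Subgroup (alternatingGroup α)} :
    IsPiHall π H ↔ ∃ M, IsPiHall π M ∧ H = M.subgroupOf (alternatingGroup α) := by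
  refine ⟨fun h => (exists_hall_inf (Solv.Pi.isPiHallOf_map_subtype.2 h)).imp fun M hM => ⟨hM.1, ?_⟩, ?_⟩
  · rw [← Subgroup.inf_subgroupOf_right, hM.2, Subgroup.subgroupOf,
      Subgroup.comap_map_eq_self_of_injective (Subgroup.subtype_injective _)]
  · rintro ⟨M, h, rfl⟩
    simpa using (Solv.Pi.isPiHallOf_iff.1 (Solv.Pi.hallOf_inf (Solv.Pi.isPiHallOf_top.2 h)
      (N := alternatingGroup α) le_top (by simp [Subgroup.normalizer_eq_top]))).2

theorem le_card_of_dvd {r : ℕ} (hr : r.Prime) {K : Subgroup (Perm α)} (h : r ∣ Nat.card K) :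
    r ≤ Fintype.card α := by
  simpa [Fintype.card_perm, hr.dvd_factorial] using h.trans (Subgroup.card_subgroup_dvd_card _)

theorem hall_alt_conj {H K : Subgroup (alternatingGroup α)} (hH : IsPiHall π H) (hK : IsPiHall π K) :
    ∃ g, K = H.map (MulAut.conj g).toMonoidHom := by
  by_cases h : ∀ r s : ℕ, r.Prime → s.Prime → r ∈ π → s ∈ π → r ∣ Nat.card (alternatingGroup α) →
    s ∣ Nat.card (alternatingGroup α) → r = s
  · exact dpi_of_le_one h _ _ (maximal_of_hall hH) (maximal_of_hall hK)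
  push Not at h
  obtain ⟨p, q, hp, hq, h1, h2, h3, h4, h⟩ := h
  obtain ⟨M, hM, rfl⟩ := hall_alt_iff.1 hH
  obtain ⟨M', hM', rfl⟩ := hall_alt_iff.1 hK
  obtain ⟨g, rfl⟩ := hall_conj hM hM'
  obtain ⟨g, hg, e⟩ : ∃ k ∈ alternatingGroup α, ∀ x, k⁻¹ * x * k ∈ M ↔ g⁻¹ * x * g ∈ M := by
    by_cases e : g ∈ alternatingGroup α
    · exact ⟨g, e, fun _ => Iff.rfl⟩
    obtain ⟨t, ht, ht'⟩ := SetLike.not_le_iff_exists.1 fun k : M ≤ alternatingGroup α =>
      hM.2 2 Nat.prime_two (two_mem hM hp hq h h1 h2 (le_card_of_dvd hp h3) (le_card_of_dvd hq h4)) (by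
        have := Fintype.one_lt_card_iff_nontrivial.1 (hp.one_lt.trans_le (le_card_of_dvd hp h3))
        exact alternatingGroup.index_eq_two (α := α) ▸ Subgroup.index_dvd_of_le k)
    refine ⟨g * t, by simp [mem_alternatingGroup, Int.units_ne_iff_eq_neg.1 e, Int.units_ne_iff_eq_neg.1 ht'],
      fun x => ?_⟩
    rw [mul_inv_rev, ← mul_assoc, M.mul_mem_cancel_right ht, mul_assoc, mul_assoc,
      M.mul_mem_cancel_left (M.inv_mem ht), mul_assoc]
  exact ⟨⟨g, hg⟩, Subgroup.ext fun x => by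
    rw [Grp.mem_map_conj_iff, Subgroup.mem_subgroupOf, Grp.mem_map_conj_iff, ← e]; rfl⟩

end Cfsg.Agent.HallSym
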